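import Mathlib

/-!
# A transitive semilinear group in odd characteristic has a subgroup of index two
(the quadratic character of the image of `1`).
-/

set_option autoImplicit false
set_option linter.style.haveILetI false

namespace Cfsg.Agent.Lib.Helper53.Hup

theorem quadraticChar_ringEquiv {F : Type*} [Field F] [Fintype F] [DecidableEq F] (σ : F ≃+* F)
    (x : F) : quadraticChar F (σ x) = quadraticChar F x := by
  by_cases hx : x = 0
  · rw [hx, map_zero]
  have hσx : σ x ≠ 0 := by
    intro h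
    exact hx (σ.injective (by rw [h, map_zero]))
  rcases quadraticChar_dichotomy hx with h1 | h1
  · rw [h1, quadraticChar_one_iff_isSquare hσx]
    exact ((quadraticChar_one_iff_isSquare hx).mp h1).map σ
  · rw [h1, quadraticChar_neg_one_iff_not_isSquare]
    intro hs
    have h2 := hs.map σ.symm
    rw [RingEquiv.symm_apply_apply] at h2
    exact (quadraticChar_neg_one_iff_not_isSquare.mp h1) h2

theorem index_two_of_semilinear {q : ℕ} [Fact q.Prime] {V : Type*} [AddCommGroup V]
    [Module (ZMod q) V] {G : Type*} [Group G]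
    (ρ : G →* (V ≃ₗ[ZMod q] V)) (htrans : ∀ v w : V, v ≠ 0 → w ≠ 0 → ∃ g : G, ρ g v = w)
    (hq : q ≠ 2) (F : Type) [Field F] [Fintype F] (e : V ≃+ F)
    (h : ∀ g : G, ∃ (a : F) (σ : F ≃+* F), ∀ v : V, e (ρ g v) = a * σ (e v)) :
    ∃ N : Subgroup G, N.Normal ∧ N.index = 2 := by
  classical
  have hv1 : e.symm 1 ≠ 0 := by
    intro h0
    have : e (e.symm 1) = e 0 := by rw [h0]
    rw [AddEquiv.apply_symm_apply, map_zero] at this
    exact one_ne_zero this
  have hchar : ringChar F ≠ 2 := by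
    intro h2
    haveI : CharP F 2 := by rw [← h2]; exact ringChar.charP F
    have h3 : (1 : F) + 1 = 0 := CharTwo.add_self_eq_zero 1
    have h4 : e.symm 1 + e.symm 1 = 0 := by rw [← map_add, h3, map_zero]
    have h5 : (2 : ZMod q) • e.symm 1 = 0 := by rw [two_smul, h4]
    rcases smul_eq_zero.mp h5 with h6 | h6
    · have h7 : ((2 : ℕ) : ZMod q) = 0 := by exact_mod_cast h6
      rw [ZMod.natCast_eq_zero_iff] at h7
      exact hq ((Nat.prime_dvd_prime_iff_eq Fact.out Nat.prime_two).mp h7)
    · exact hv1 h6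
  let val : G → F := fun g => e (ρ g (e.symm 1))
  have hval0 : ∀ g, val g ≠ 0 := by
    intro g h0
    have h1 : ρ g (e.symm 1) = 0 := e.injective (by rw [map_zero]; exact h0)
    exact hv1 ((ρ g).injective (by rw [h1, map_zero]))
  have hval : ∀ g₁ g₂, ∃ σ : F ≃+* F, val (g₁ * g₂) = val g₁ * σ (val g₂) := by
    intro g₁ g₂
    obtain ⟨a, σ, hσ⟩ := h g₁
    refine ⟨σ, ?_⟩
    have h1 : val g₁ = a := by
      change e (ρ g₁ (e.symm 1)) = a
      rw [hσ, AddEquiv.apply_symm_apply, map_one, mul_one]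
    rw [h1]
    change e (ρ (g₁ * g₂) (e.symm 1)) = _
    rw [map_mul, LinearEquiv.mul_apply, hσ]
  let χ : G →* ℤ :=
    { toFun := fun g => quadraticChar F (val g)
      map_one' := by
        change quadraticChar F (e (ρ 1 (e.symm 1))) = 1
        rw [map_one]
        change quadraticChar F (e (e.symm 1)) = 1
        rw [AddEquiv.apply_symm_apply, map_one]
      map_mul' := by
        intro g₁ g₂
        obtain ⟨σ, hσ⟩ := hval g₁ g₂
        rw [hσ, map_mul, quadraticChar_ringEquiv] }
  have hχ : ∀ g, χ g = quadraticChar F (val g) := fun g => rfl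
  obtain ⟨a₀, ha₀⟩ := quadraticChar_exists_neg_one hchar
  have ha₀0 : a₀ ≠ 0 := by
    intro h0
    rw [h0, quadraticChar_zero] at ha₀
    omega
  have hva : e.symm a₀ ≠ 0 := by
    intro h0
    have : e (e.symm a₀) = e 0 := by rw [h0]
    rw [AddEquiv.apply_symm_apply, map_zero] at this
    exact ha₀0 this
  obtain ⟨g₀, hg₀⟩ := htrans _ _ hv1 hva
  have hχg₀ : χ g₀ = -1 := by
    rw [hχ]
    change quadraticChar F (e (ρ g₀ (e.symm 1))) = -1
    rw [hg₀, AddEquiv.apply_symm_apply, ha₀]
  refine ⟨χ.ker, inferInstance, ?_⟩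
  rw [Subgroup.index_eq_two_iff]
  refine ⟨g₀, fun b => ?_⟩
  simp only [MonoidHom.mem_ker, map_mul, hχg₀]
  rcases quadraticChar_dichotomy (hval0 b) with h1 | h1
  · rw [hχ, h1]; decide
  · rw [hχ, h1]; decide

end Cfsg.Agent.Lib.Helper53.Hup
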